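import Cfsg.Agent.Lib.Helper4.FXSP.Defs
import Cfsg.Agent.Lib.Helper94.Symp

/-!
# FXSP (S5975), package [INVOL]

A symplectic involution with a 2-dimensional `(-1)`-eigenspace (odd characteristic).
-/

set_option autoImplicit false

namespace Cfsg.Agent.Lib.Helper84.FXSP

open Cfsg Cfsg.Geo Matrix
open Cfsg.Agent.Lib.Helper4.FXSP
open scoped MatrixGroups

universe u

theorem pkgInvol : PkgInvol.{u} := by
  intro F _ _ d hd h2
  classical
  obtain ⟨i0, hi0⟩ : ∃ i0 : Fin d, i0 = ⟨0, hd⟩ := ⟨_, rfl⟩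
  obtain ⟨δ, hδdef⟩ : ∃ δ : Fin d ⊕ Fin d → F,
      δ = fun j => if j = Sum.inl i0 ∨ j = Sum.inr i0 then -1 else 1 := ⟨_, rfl⟩
  have hδ : ∀ j, δ j * δ j = 1 := by
    intro j
    rw [hδdef]
    dsimp only
    split_ifs <;> ring
  have hDD : Matrix.diagonal δ * Matrix.diagonal δ = (1 : Md d F) := by
    rw [Matrix.diagonal_mul_diagonal, ← Matrix.diagonal_one]
    congr 1
    funext j
    exact hδ j
  obtain ⟨x, hx⟩ : ∃ x : GL (Fin d ⊕ Fin d) F, (x : Md d F) = Matrix.diagonal δ :=
    ⟨⟨Matrix.diagonal δ, Matrix.diagonal δ, hDD, hDD⟩, rfl⟩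
  refine ⟨x, ?_, ?_, ?_⟩
  · rw [Cfsg.Agent.Lib.Helper94.mem_spGL_iff]
    intro u v
    rw [hx, Cfsg.Agent.Lib.Helper94.sf_eq, Cfsg.Agent.Lib.Helper94.sf_eq]
    apply Finset.sum_congr rfl
    intro i _
    rw [Matrix.mulVec_diagonal, Matrix.mulVec_diagonal, Matrix.mulVec_diagonal,
      Matrix.mulVec_diagonal]
    have hd' : δ (Sum.inr i) * δ (Sum.inl i) = 1 := by
      rw [hδdef]
      by_cases hi : i = i0 <;> simp [hi]
    linear_combination
      (u (Sum.inr i) * v (Sum.inl i) - u (Sum.inl i) * v (Sum.inr i)) * hd'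
  · apply Units.ext
    rw [pow_two, Units.val_mul, hx, Units.val_one]
    exact hDD
  · rw [hx]
    have e : (Matrix.diagonal δ : Md d F) - 1 = Matrix.diagonal (fun j => δ j - 1) := by
      rw [← Matrix.diagonal_one, Matrix.diagonal_sub]
    rw [e, Matrix.rank_diagonal, Fintype.card_subtype]
    have hf : (Finset.univ.filter (fun j : Fin d ⊕ Fin d => δ j - 1 ≠ 0)) =
        {Sum.inl i0, Sum.inr i0} := by
      ext j
      simp only [Finset.mem_filter, Finset.mem_univ, true_and, Finset.mem_insert,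
        Finset.mem_singleton]
      rw [hδdef]
      dsimp only
      constructor
      · intro h
        by_contra hc
        rw [if_neg hc] at h
        exact h (sub_self 1)
      · intro h
        rw [if_pos h]
        intro h0
        apply h2
        have : (2 : F) = -((-1 : F) - 1) := by ring
        rw [this, h0, neg_zero]
    rw [hf, Finset.card_pair]
    simp

end Cfsg.Agent.Lib.Helper84.FXSP
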