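import Cfsg.Agent.Lib.Helper4.FXSP.Defs

/-!
# FXSP (S5975), package [KDIV]

A `K`-invariant subspace has dimension divisible by `k` (tower law over the field `K`).
-/

set_option autoImplicit false

namespace Cfsg.Agent.Lib.Helper84.FXSP

open Cfsg Cfsg.Geo Matrix
open Cfsg.Agent.Lib.Helper4.FXSP

universe u

open scoped Classical in
/-- the field structure on a commutative subalgebra of matrices with inverses -/
@[reducible] noncomputable def fieldOfSubI {F : Type u} [Field F] {ι : Type} [Fintype ι]
    [DecidableEq ι] [Nonempty ι] (K' : Subalgebra F (Matrix ι ι F))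
    (hc : ∀ x ∈ K', ∀ y ∈ K', x * y = y * x) (hi : ∀ x ∈ K', x ≠ 0 → ∃ y ∈ K', x * y = 1) :
    Field ↥K' where
  __ := (inferInstance : Ring ↥K')
  mul_comm a b := Subtype.ext (hc a a.2 b b.2)
  inv a := if ha : a = 0 then 0 else
    ⟨Classical.choose (hi a a.2 (fun h => ha (Subtype.ext h))),
      (Classical.choose_spec (hi a a.2 (fun h => ha (Subtype.ext h)))).1⟩
  exists_pair_ne := ⟨0, 1, fun h => by
    have h1 : (0 : Matrix ι ι F) = 1 := congrArg Subtype.val h
    exact zero_ne_one h1⟩
  mul_inv_cancel a ha := by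
    apply Subtype.ext
    have h2 := (Classical.choose_spec (hi a a.2 (fun h => ha (Subtype.ext h)))).2
    show (a : Matrix ι ι F) * ((if ha : a = 0 then (0 : ↥K') else
      ⟨Classical.choose (hi a a.2 (fun h => ha (Subtype.ext h))),
        (Classical.choose_spec (hi a a.2 (fun h => ha (Subtype.ext h)))).1⟩ : ↥K') :
          Matrix ι ι F) = 1
    rw [dif_neg ha]
    exact h2
  inv_zero := dif_pos rfl
  nnqsmul := _
  nnqsmul_def _ _ := rfl
  qsmul := _
  qsmul_def _ _ := rfl

theorem pkgKDiv : PkgKDiv.{u} := by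
  intro F _ _ d k K hK W hW
  classical
  rcases Nat.eq_zero_or_pos d with hd | hd
  · subst hd
    have h0 : Module.finrank F W = 0 := by
      have : Subsingleton (Vd 0 F) := inferInstance
      exact Module.finrank_zero_of_subsingleton
    rw [h0]
    exact dvd_zero k
  · have : Nonempty (Fin d ⊕ Fin d) := ⟨Sum.inl ⟨0, hd⟩⟩
    let instField : Field ↥K := fieldOfSubI K hK.comm hK.inv
    let instSMul : SMul ↥K ↥W :=
      ⟨fun a w => ⟨(a : Md d F) *ᵥ (w : Vd d F), hW a a.2 w w.2⟩⟩
    have hsm : ∀ (a : ↥K) (w : ↥W), ((a • w : ↥W) : Vd d F) = (a : Md d F) *ᵥ (w : Vd d F) :=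
      fun _ _ => rfl
    let instMod : Module ↥K ↥W :=
      { one_smul := fun w => Subtype.ext (by
          rw [hsm, OneMemClass.coe_one, Matrix.one_mulVec])
        mul_smul := fun a b w => Subtype.ext (by
          rw [hsm, hsm, hsm, MulMemClass.coe_mul, Matrix.mulVec_mulVec])
        smul_zero := fun a => Subtype.ext (by
          rw [hsm, ZeroMemClass.coe_zero, Matrix.mulVec_zero])
        smul_add := fun a w w' => Subtype.ext (by
          rw [hsm, AddMemClass.coe_add, AddMemClass.coe_add, hsm, hsm, Matrix.mulVec_add])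
        add_smul := fun a b w => Subtype.ext (by
          rw [hsm, AddMemClass.coe_add, AddMemClass.coe_add, hsm, hsm, Matrix.add_mulVec])
        zero_smul := fun w => Subtype.ext (by
          rw [hsm, ZeroMemClass.coe_zero, ZeroMemClass.coe_zero, Matrix.zero_mulVec]) }
    have : IsScalarTower F ↥K ↥W :=
      ⟨fun c a w => Subtype.ext (by
        show ((c • a : ↥K) : Md d F) *ᵥ (w : Vd d F) = c • ((a : Md d F) *ᵥ (w : Vd d F))
        exact Matrix.smul_mulVec c (a : Md d F) (w : Vd d F))⟩
    have h := Module.finrank_mul_finrank F ↥K ↥W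
    rw [hK.finrank_eq] at h
    exact Dvd.intro _ h

end Cfsg.Agent.Lib.Helper84.FXSP
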