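import Cfsg.Agent.Lib.Helper4.FXSP.Defs
import Cfsg.Agent.Lib.Helper94.Symp

/-!
# FXSP (S5975), package [TRANSV]

A symplectic transvection: `t ∈ Sp`, `t ^ p = 1`, `rank (t - 1) = 1`.
-/

set_option autoImplicit false

namespace Cfsg.Agent.Lib.Helper84.FXSP

open Cfsg Cfsg.Geo Matrix
open Cfsg.Agent.Lib.Helper4.FXSP
open scoped MatrixGroups

universe u

theorem pkgTransv : PkgTransv.{u} := by
  intro F _ _ d p _ _ hd
  classical
  obtain ⟨a, ha⟩ : ∃ a : Vd d F, a = Pi.single (Sum.inl ⟨0, hd⟩) 1 := ⟨_, rfl⟩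
  obtain ⟨b, hb⟩ : ∃ b : Vd d F, b = Pi.single (Sum.inr ⟨0, hd⟩) 1 := ⟨_, rfl⟩
  have hba : sympForm d F b a = 1 := by
    rw [Cfsg.Agent.Lib.Helper94.sf_eq, Finset.sum_eq_single (⟨0, hd⟩ : Fin d)]
    · simp [ha, hb]
    · intro j _ hj
      simp [ha, hb, hj]
    · intro h
      exact absurd (Finset.mem_univ _) h
  have ha0 : a ≠ 0 := by
    intro h
    have h1 := congrFun h (Sum.inl ⟨0, hd⟩)
    simp [ha] at h1
  obtain ⟨t, ht⟩ : ∃ t : GL (Fin d ⊕ Fin d) F, t = Cfsg.Agent.Lib.Helper94.sympTransGL d a 1 :=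
    ⟨_, rfl⟩
  have hmv : ∀ x : Vd d F, (t : Md d F) *ᵥ x = x + sympForm d F x a • a := by
    intro x
    rw [ht, Cfsg.Agent.Lib.Helper94.sympTransGL_mulVec, one_mul]
  have hpow : ∀ (n : ℕ) (x : Vd d F),
      ((t ^ n : GL (Fin d ⊕ Fin d) F) : Md d F) *ᵥ x = x + ((n : F) * sympForm d F x a) • a := by
    intro n
    induction n with
    | zero =>
      intro x
      simp
    | succ n ih =>
      intro x
      rw [pow_succ, Units.val_mul, ← Matrix.mulVec_mulVec, hmv, Matrix.mulVec_add,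
        Matrix.mulVec_smul, ih, ih, Cfsg.Agent.Lib.Helper94.sf_self, mul_zero, zero_smul,
        add_zero]
      push_cast
      module
  refine ⟨t, ht ▸ Cfsg.Agent.Lib.Helper94.sympTransGL_mem d a 1, ?_, ?_⟩
  · apply Units.ext
    apply Matrix.toLin'.injective
    apply LinearMap.ext
    intro x
    rw [Matrix.toLin'_apply, hpow, CharP.cast_eq_zero F p, zero_mul, zero_smul, add_zero]
    simp
  · have hr : LinearMap.range ((t : Md d F) - 1).mulVecLin = Submodule.span F {a} := by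
      apply le_antisymm
      · rintro _ ⟨x, rfl⟩
        rw [Matrix.mulVecLin_apply, Matrix.sub_mulVec, Matrix.one_mulVec, hmv,
          add_sub_cancel_left]
        exact Submodule.smul_mem _ _ (Submodule.mem_span_singleton_self a)
      · rw [Submodule.span_singleton_le_iff_mem]
        refine ⟨b, ?_⟩
        rw [Matrix.mulVecLin_apply, Matrix.sub_mulVec, Matrix.one_mulVec, hmv,
          add_sub_cancel_left, hba, one_smul]
    show Module.finrank F (LinearMap.range ((t : Md d F) - 1).mulVecLin) = 1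
    rw [hr, finrank_span_singleton ha0]

end Cfsg.Agent.Lib.Helper84.FXSP
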